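import Cfsg.Agent.H486.F4.KSeven
import Cfsg.Agent.H150.QF.Rt
import Cfsg.Agent.H594.QF.VOne
import Cfsg.Agent.BabyU.Perf1

/-!
# S2491, row F4 = `²E₆(2)` : the 2-central involutions are the root elements (box K1, helper868)
-/

set_option autoImplicit false
set_option linter.unusedSectionVars false

namespace Cfsg.Agent.H868.QF

open CoxeterSystem Cfsg.Agent.ChevalleyStructure.CoxeterGeom Cfsg.Agent.Tits.Roots Cfsg.Agent.Tits.Core
  Cfsg.Agent.Nodes Cfsg.Agent.Nodes.Reps Cfsg.Agent.Nodes.BNOf Cfsg.Agent.Nodes.RGDLib Cfsg.Agent.Nodes.Bruhat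
  Cfsg.Agent.Nodes.OppDec Cfsg.Agent.Nodes.LeviDec Cfsg.Agent.Nodes.StabComb
open Cfsg.Lie Subgroup
open Cfsg.Agent.H231.QF

universe u

variable {F : Type u} [Field F] [Fintype F] (hF : Fintype.card F = 4) {φ : F →+* F} (hφ : ∀ t, φ t = t ^ 2)

/-- a Sylow 2-subgroup -/
noncomputable abbrev UU (φ : F →+* F) : Subgroup (KK F) := RGD.Sup (X φ) (RGD.Pos cs RGDTwE6.isCartan)

include hF hφ in
theorem V_le_UU : V φ j1 ≤ UU φ := by
  refine RGD.Sup_le fun z hz => ?_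
  exact RGD.le_Sup (S := RGD.Pos cs RGDTwE6.isCartan) ⟨hz.1, hz.2.1⟩

include hF hφ in
/-- an element of `U` which commutes with `U` lies in `X_θ` -/
theorem mem_X_of_comm {t : KK F} (ht : t ∈ UU φ) (h : ∀ u ∈ UU φ, t * u = u * t) : t ∈ X φ th := by
  have hfin : Finite (KK F) := Cfsg.Agent.TwoESix.LongCard.finite_E
  obtain ⟨h1, -, h3, -⟩ := H594.QF.V1_struct hF hφ
  have htP : t ∈ P φ j1 := B_le_PJ (le_sup_right (a := RGDTwE6.T F 2) ht)
  by_cases hV : t ∈ V φ j1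
  · exact h3 t hV fun y hy => h y (V_le_UU hF hφ hy)
  · exfalso
    have h4 := H486.F4.rank_P hF hφ htP hV
    have h5 : Nat.card {x : KK F // x ∈ V φ j1 ∧ t * x * t⁻¹ * x⁻¹ ∈ X φ th} = Nat.card (V φ j1) := by
      refine Nat.card_congr (Equiv.subtypeEquivRight fun x => ⟨fun hx => hx.1, fun hx => ⟨hx, ?_⟩⟩)
      have h6 := h x (V_le_UU hF hφ hx)
      have h7 : t * x * t⁻¹ * x⁻¹ = 1 := by rw [h6]; group
      rw [h7]
      exact one_mem _
    rw [h5] at h4
    have h8 : 0 < Nat.card (V φ j1) := Nat.card_pos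
    omega

include hF in
theorem fac_eq : 2 ^ (Nat.card (KK F)).factorization 2 = 2 ^ 36 := by
  obtain ⟨k, hk, hcard⟩ := BabyU.Perf1.card_odd hF
  rw [show Nat.card (KK F) = 2 ^ 36 * k from hcard]
  have hk0 : k ≠ 0 := by
    rintro rfl
    exact absurd hk (by decide)
  rw [Nat.factorization_mul (by positivity) hk0, Nat.Prime.factorization_pow Nat.prime_two, Finsupp.add_apply,
    Finsupp.single_eq_same, Nat.factorization_eq_zero_of_not_dvd (fun h => (Nat.not_even_iff_odd.2 hk) (even_iff_two_dvd.2 h))]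

include hF hφ in
/-- **K1** : the involutions in the centre of a Sylow 2-subgroup are the conjugates of the element of `X_θ` -/
theorem re_iff (t : KK F) : RE t ↔ t ≠ 1 ∧ ∃ x : KK F, x * t * x⁻¹ ∈ X φ th := by
  have hfin : Finite (KK F) := Cfsg.Agent.TwoESix.LongCard.finite_E
  refine ⟨fun ⟨h1, h2, h3⟩ => ⟨h1, ?_⟩, fun ⟨h1, x, hx⟩ => H150.QF.re_of hF hφ hx h1⟩
  have f2 : Fact (Nat.Prime 2) := ⟨Nat.prime_two⟩
  have hfac := fac_eq hF
  let S₁ : Sylow 2 (KK F) := Sylow.ofCard (UU φ) (by rw [H150.QF.card_U hF hφ, hfac])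
  obtain ⟨Q, hQ⟩ := Sylow.exists_subgroup_card_pow_prime 2 h3
  have hQ' : Nat.card (Q.map (centralizer ({t} : Set (KK F))).subtype) = 2 ^ 36 := by
    rw [Subgroup.card_map_of_injective (centralizer ({t} : Set (KK F))).subtype_injective, hQ]
  let S₂ : Sylow 2 (KK F) := Sylow.ofCard (Q.map (centralizer ({t} : Set (KK F))).subtype) (by rw [hQ', hfac])
  obtain ⟨x, hx⟩ := MulAction.exists_smul_eq (KK F) S₂ S₁
  have hmem : ∀ u ∈ UU φ, x⁻¹ * u * x ∈ centralizer ({t} : Set (KK F)) := by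
    intro u hu
    have h4 : u ∈ (S₁ : Subgroup (KK F)) := hu
    rw [← hx, Sylow.coe_subgroup_smul, Subgroup.mem_pointwise_smul_iff_inv_smul_mem] at h4
    have h5 : (MulAut.conj x)⁻¹ • u = x⁻¹ * u * x := by
      rw [← map_inv, MulAut.smul_def, MulAut.conj_apply, inv_inv]
    rw [h5] at h4
    obtain ⟨c, -, hc⟩ := h4
    rw [← hc]
    exact c.2
  have hcomm : ∀ u ∈ UU φ, x * t * x⁻¹ * u = u * (x * t * x⁻¹) := by
    intro u hu
    have h4 := mem_centralizer_singleton_iff.1 (hmem u hu)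
    calc x * t * x⁻¹ * u = x * (t * (x⁻¹ * u * x)) * x⁻¹ := by group
      _ = x * (x⁻¹ * u * x * t) * x⁻¹ := by rw [h4]
      _ = u * (x * t * x⁻¹) := by group
  refine ⟨x, mem_X_of_comm hF hφ ?_ hcomm⟩
  have hp : IsPGroup 2 (zpowers (x * t * x⁻¹)) := by
    refine IsPGroup.of_card (n := 1) ?_
    rw [Nat.card_zpowers, pow_one]
    refine orderOf_eq_prime ?_ ?_
    · rw [pow_two]
      calc x * t * x⁻¹ * (x * t * x⁻¹) = x * (t * t) * x⁻¹ := by group
        _ = 1 := by rw [h2]; group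
    · intro h
      apply h1
      calc t = x⁻¹ * (x * t * x⁻¹) * x := by group
        _ = 1 := by rw [h]; group
  have h6 := hp.inf_normalizer_sylow S₁
  have h7 : x * t * x⁻¹ ∈ normalizer ((UU φ : Subgroup (KK F)) : Set (KK F)) := by
    rw [mem_normalizer_iff]
    intro u
    have key : ∀ u ∈ UU φ, x * t * x⁻¹ * u * (x * t * x⁻¹)⁻¹ = u := fun u hu => by rw [hcomm u hu]; group
    constructor
    · intro hu
      rw [key u hu]
      exact hu
    · intro hu
      have h8 := key _ hu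
      have h9 : u = x * t * x⁻¹ * u * (x * t * x⁻¹)⁻¹ := by
        calc u = (x * t * x⁻¹)⁻¹ * (x * t * x⁻¹ * u * (x * t * x⁻¹)⁻¹) * (x * t * x⁻¹) := by group
          _ = (x * t * x⁻¹)⁻¹ * (x * t * x⁻¹ * (x * t * x⁻¹ * u * (x * t * x⁻¹)⁻¹) * (x * t * x⁻¹)⁻¹) * (x * t * x⁻¹) := by
            rw [h8]
          _ = _ := by group
      rw [h9]
      exact hu
  have h8 : x * t * x⁻¹ ∈ zpowers (x * t * x⁻¹) ⊓ normalizer (S₁ : Set (KK F)) := Subgroup.mem_inf.2 ⟨mem_zpowers _, h7⟩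
  rw [h6] at h8
  exact (Subgroup.mem_inf.1 h8).2

end Cfsg.Agent.H868.QF
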